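import Cfsg.Agent.Lib.H43.J4B.U0
import Cfsg.Agent.Lib.H43.J4B.U1
import Cfsg.Agent.Lib.H43.J4B.U2

set_option autoImplicit false
set_option maxRecDepth 100000

noncomputable section

namespace H43.J4B

open H34.TC

theorem hslot : ∀ g, g < 3 → Rng (fun i e => ∃ J, chkSlot (tabF tabs) E D (wAF iota WA g) subs 642 g i e J = true) (tabF tabs g) 0 768 := by
  intro g hg
  interval_cases g
  · exact r0
  · exact r1
  · exact r2

theorem upper {G : Type*} [Group G] (l : Nat → G) (H : Subgroup G) (hi : ∀ g, l (iota g) = (l g)⁻¹)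
    (hb : ∀ r ∈ base, (r.map l).prod = 1) (hgen : Subgroup.closure {x | ∃ g < 3, x = l g} = ⊤)
    (hs : ∀ w ∈ hw, wp l w ∈ H) : H.FiniteIndex ∧ H.index ≤ 1 := by
  refine H34.TC.upper l H 3 642 768 1 tabs E D base iota WA HA WE HE subs subE (by norm_num) (by norm_num) (by norm_num) rfl
    hi hb hgen ?_ ?_ ?_ ?_ hslot rE (Nat.eq_of_beq_eq_true cN)
  · have h : (subs.all fun s => hw.contains (s.1 ++ s.2.1 :: s.2.2)) = true := by decide +kernel
    intro s hs'
    exact hs _ (List.contains_iff_mem.1 ((List.all_eq_true.1 h) s hs'))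
  · have h : (subE.all fun s => hw.contains (s.1 ++ s.2)) = true := by decide +kernel
    intro s hs'
    exact hs _ (List.contains_iff_mem.1 ((List.all_eq_true.1 h) s hs'))
  · decide +kernel
  · decide +kernel

end H43.J4B
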